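import Mathlib

/-!
# Sets of {2,p}-transpositions, part 1: the case of a TI-set of elementary abelian blocks

`D` is a normal set of involutions, any two members commute or have product of order `p ≥ 5`,
commuting is an equivalence relation, blocks together with `1` are groups, and centralisers of
elements of order `2` or `p` contain no configuration `a, b, x`.  This is impossible.
-/

set_option autoImplicit false

namespace Cfsg.Agent.Spor.PT

section Fix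
variable {X : Type*}

theorem iff_of_mapsTo {σ : Equiv.Perm X} {q : ℕ} (hq : 0 < q) (hσ : σ ^ q = 1) {S : Set X}
    (hm : ∀ s ∈ S, σ s ∈ S) (x : X) : σ x ∈ S ↔ x ∈ S := by
  refine ⟨fun h => ?_, hm x⟩
  have key : ∀ n : ℕ, (σ ^ n) (σ x) ∈ S := by
    intro n
    induction n with
    | zero => simpa using h
    | succ n ih => rw [pow_succ', Equiv.Perm.mul_apply]; exact hm _ ih
  have := key (q - 1)
  rw [← Equiv.Perm.mul_apply, ← pow_succ, Nat.sub_add_cancel hq, hσ] at this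
  simpa using this

theorem fix1 [Finite X] {σ : Equiv.Perm X} {q : ℕ} (hq : q.Prime) (hσ : σ ^ q = 1) {S : Set X}
    (hm : ∀ s ∈ S, σ s ∈ S) (hS : ¬ q ∣ S.ncard) : ∃ s ∈ S, σ s = s := by
  classical
  have := Fact.mk hq
  have : Fintype S := Fintype.ofFinite S
  let τ : Equiv.Perm S := σ.subtypePerm (iff_of_mapsTo hq.pos hσ hm)
  have hτ : τ ^ q ^ 1 = 1 := by
    rw [pow_one]; simp only [τ, Equiv.Perm.subtypePerm_pow]
    ext x; simp [hσ]
  have hc : ¬ q ∣ Fintype.card S := by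
    rwa [← Nat.card_eq_fintype_card, Nat.card_coe_set_eq]
  obtain ⟨a, ha⟩ := Equiv.Perm.exists_fixed_point_of_prime hc hτ
  exact ⟨a, a.2, congrArg Subtype.val ha⟩

theorem fix2 [Finite X] {σ : Equiv.Perm X} {q : ℕ} (hq : q.Prime) (hσ : σ ^ q = 1) {S : Set X}
    (hm : ∀ s ∈ S, σ s ∈ S) (hS : q ∣ S.ncard) {s : X} (hs : s ∈ S) (hf : σ s = s) :
    ∃ s' ∈ S, σ s' = s' ∧ s' ≠ s := by
  classical
  have := Fact.mk hq
  have : Fintype S := Fintype.ofFinite S
  let τ : Equiv.Perm S := σ.subtypePerm (iff_of_mapsTo hq.pos hσ hm)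
  have hτ : τ ^ q ^ 1 = 1 := by
    rw [pow_one]; simp only [τ, Equiv.Perm.subtypePerm_pow]
    ext x; simp [hσ]
  have hc : q ∣ Fintype.card S := by
    rwa [← Nat.card_eq_fintype_card, Nat.card_coe_set_eq]
  obtain ⟨b, hb, hne⟩ := Equiv.Perm.exists_fixed_point_of_prime' hc hτ (a := ⟨s, hs⟩)
    (Subtype.ext hf)
  exact ⟨b, b.2, congrArg Subtype.val hb, fun h => hne (Subtype.ext h)⟩

end Fix

variable {G : Type*} [Group G]

/-- conjugation as a permutation -/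
def cjP (c : G) : Equiv.Perm G := MulAction.toPermHom (MulAut G) G (MulAut.conj c)

theorem cjP_apply (c x : G) : cjP c x = c * x * c⁻¹ := rfl

theorem cjP_pow {c : G} {q : ℕ} (h : c ^ q = 1) : cjP c ^ q = 1 := by
  unfold cjP; rw [← map_pow, ← map_pow, h, map_one, map_one]

theorem smulP_pow {Ω : Type*} [MulAction G Ω] {c : G} {q : ℕ} (h : c ^ q = 1) :
    MulAction.toPermHom G Ω c ^ q = 1 := by
  rw [← map_pow, h, map_one]

theorem eq_one_of_pow_four {r : G} {p : ℕ} (hp : Odd p) (h4 : r ^ 4 = 1) (h : r ^ p = 1) :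
    r = 1 := by
  have : (4 : ℕ).Coprime p := by
    have h2 : (2 : ℕ).Coprime p := (Nat.coprime_two_left).2 hp
    exact (Nat.Coprime.pow_left 2 h2 :)
  have h1 := pow_gcd_eq_one.2 ⟨h4, h⟩
  rwa [this, pow_one] at h1

theorem inv_of_sq {d : G} (h : d * d = 1) : d⁻¹ = d := inv_eq_of_mul_eq_one_right h

/-- A set of `{2,p}`-transpositions (the identity is allowed). -/
structure TP (p : ℕ) (D : Set G) : Prop where
  sq : ∀ d ∈ D, d * d = 1
  cj : ∀ d ∈ D, ∀ g : G, g * d * g⁻¹ ∈ D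
  pr : ∀ a ∈ D, ∀ b ∈ D, Commute a b ∨ (a * b) ^ p = 1

namespace TP
variable {p : ℕ} {D : Set G}

theorem comm_of_four (h : TP p D) (hp : Odd p) {a b : G} (ha : a ∈ D) (hb : b ∈ D)
    (h4 : (a * b) ^ 4 = 1) : Commute a b := by
  rcases h.pr a ha b hb with h1 | h1
  · exact h1
  · have := eq_one_of_pow_four hp h4 h1
    have e : a = b := by
      rw [← inv_of_sq (h.sq b hb)]; exact eq_inv_of_mul_eq_one_left this
    rw [e]

theorem comm_of_conj (h : TP p D) (hp : Odd p) {a b : G} (ha : a ∈ D) (hb : b ∈ D)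
    (hc : Commute (a * b * a⁻¹) b) : Commute a b := by
  apply h.comm_of_four hp ha hb
  have h1 := h.sq _ (h.cj b hb a)
  have h2 := h.sq b hb
  rw [inv_of_sq (h.sq a ha)] at hc h1
  calc (a * b) ^ 4 = (a * b * a) * (b * (a * b * a)) * b := by simp only [pow_succ, pow_zero, one_mul, mul_assoc]
    _ = (a * b * a) * ((a * b * a) * b) * b := by rw [hc.eq]
    _ = ((a * b * a) * (a * b * a)) * (b * b) := by simp only [mul_assoc]
    _ = 1 := by rw [h1, h2, one_mul]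

theorem inv_pow_conj {d r : G} (hd : d * r * d = r⁻¹) (hdd : d * d = 1) (j : ℕ) :
    d * r ^ j * d = (r ^ j)⁻¹ := by
  have : d * r ^ j * d⁻¹ = (d * r * d⁻¹) ^ j := by rw [conj_pow]
  rw [inv_of_sq hdd] at this
  rw [this, hd, inv_pow]

theorem dih_inv {d e : G} (hd : d * d = 1) (he : e * e = 1) : d * (d * e) * d = (d * e)⁻¹ := by
  rw [mul_inv_rev, inv_of_sq hd, inv_of_sq he, ← mul_assoc, hd, one_mul]

theorem line_mem (h : TP p D) {d e : G} (hd : d ∈ D) (he : e ∈ D) (j : ℕ) :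
    d * (d * e) ^ j ∈ D := by
  have hdd := h.sq d hd
  have key : ∀ j : ℕ, d * (d * e) ^ j ∈ D ∧ d * (d * e) ^ (j + 1) ∈ D := by
    intro j
    induction j with
    | zero => refine ⟨by simpa using hd, ?_⟩; rw [zero_add, pow_one, ← mul_assoc, hdd, one_mul]; exact he
    | succ j ih =>
      refine ⟨ih.2, ?_⟩
      have := h.cj _ ih.1 (d * e)⁻¹
      rw [inv_inv, ← dih_inv hdd (h.sq e he)] at this
      convert this using 1
      rw [pow_succ, pow_succ']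
      have e1 : ∀ y : G, d * (d * y) = y := fun y => by rw [← mul_assoc, hdd, one_mul]
      simp only [mul_assoc, e1]
  exact (key j).1

theorem mid (h : TP p D) (hp : Odd p) {d e : G} (hd : d ∈ D) (he : e ∈ D) (hn : ¬ Commute d e) :
    ∃ f ∈ D, f * d * f⁻¹ = e ∧ ¬ Commute f d := by
  obtain ⟨m, hm⟩ := hp
  have hr : (d * e) ^ p = 1 := (h.pr d hd e he).resolve_left hn
  have hdd := h.sq d hd
  have hf := h.line_mem hd he (m + 1)
  have key : d * (d * e) ^ (m + 1) * d * (d * (d * e) ^ (m + 1))⁻¹ = e := by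
    rw [inv_of_sq (h.sq _ hf)]
    calc d * (d * e) ^ (m + 1) * d * (d * (d * e) ^ (m + 1))
        = d * ((d * e) ^ (m + 1) * (d * d) * (d * e) ^ (m + 1)) := by simp only [mul_assoc]
      _ = d * ((d * e) ^ p * (d * e)) := by
          rw [hdd, mul_one, ← pow_add, ← pow_succ, hm]; congr 2; ring
      _ = e := by rw [hr, one_mul, ← mul_assoc, hdd, one_mul]
  refine ⟨_, hf, key, fun hc => hn ?_⟩
  rw [hc.eq, mul_inv_cancel_right] at key
  rw [key]

end TP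

/-- The configuration to be refuted. -/
structure Core (p : ℕ) (D : Set G) {Ω : Type*} [MulAction G Ω] (π : G → Ω) : Prop extends TP p D where
  prime : p.Prime
  five : 5 ≤ p
  ne : ∀ d ∈ D, d ≠ 1
  mul : ∀ a ∈ D, ∀ b ∈ D, Commute a b → a ≠ b → a * b ∈ D
  two : ∀ d ∈ D, ∃ e ∈ D, e ≠ d ∧ Commute d e
  non : ∀ d ∈ D, ∃ e ∈ D, ¬ Commute d e
  min : ∀ c : G, c ≠ 1 → (c ^ 2 = 1 ∨ c ^ p = 1) → ∀ a ∈ D, ∀ b ∈ D, ∀ x ∈ D, Commute a b → a ≠ b →
    ¬ Commute a x → Commute c a → Commute c b → Commute c x → False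
  eqv : ∀ d ∈ D, ∀ g : G, π (g * d * g⁻¹) = g • π d
  blk : ∀ d ∈ D, ∀ e ∈ D, π d = π e ↔ Commute d e
  surj : ∀ ω : Ω, ∃ d ∈ D, π d = ω

namespace Core
variable {p : ℕ} {D : Set G} {Ω : Type*} [MulAction G Ω] {π : G → Ω}

theorem odd (h : Core p D π) : Odd p := h.prime.odd_of_ne_two (by have := h.five; omega)

theorem fix_iff (h : Core p D π) {u : G} (hu : u ∈ D) {ω : Ω} : u • ω = ω ↔ π u = ω := by
  obtain ⟨d, hd, rfl⟩ := h.surj ω
  rw [← h.eqv d hd, h.blk _ (h.cj d hd u) d hd, h.blk u hu d hd]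
  refine ⟨h.toTP.comm_of_conj h.odd hu hd, fun hc => ?_⟩
  rw [hc.eq, mul_inv_cancel_right]

theorem inj (h : Core p D π) [Finite G] {d f f' : G} (hd : d ∈ D) (hf : f ∈ D) (hf' : f' ∈ D)
    (n1 : ¬ Commute f d) (n2 : ¬ Commute f' d) (e : f * d * f⁻¹ = f' * d * f'⁻¹) : f = f' := by
  let A := {f : G // f ∈ D ∧ ¬ Commute f d}
  let F : A → A := fun f => ⟨f.1 * d * f.1⁻¹, h.cj d hd _, fun hc =>
    f.2.2 (h.toTP.comm_of_conj h.odd f.2.1 hd hc)⟩
  have hs : Function.Surjective F := by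
    rintro ⟨e, he, hn⟩
    obtain ⟨f, hf, e1, e2⟩ := h.toTP.mid h.odd hd he (fun hc => hn hc.symm)
    exact ⟨⟨f, hf, e2⟩, Subtype.ext e1⟩
  have hi := Finite.injective_iff_surjective.2 hs
  have := hi (a₁ := ⟨f, hf, n1⟩) (a₂ := ⟨f', hf', n2⟩) (Subtype.ext e)
  exact congrArg Subtype.val this

theorem ncomm_of_move (h : Core p D π) {f d : G} (hf : f ∈ D) (hd : d ∈ D)
    (hm : f • π d ≠ π d) : ¬ Commute f d := fun hc =>
  hm ((h.fix_iff hf).2 ((h.blk f hf d hd).2 hc))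

theorem swap (h : Core p D π) {f : G} (hf : f ∈ D) {β γ : Ω} (e : f • β = γ) : f • γ = β := by
  rw [← e, smul_smul, h.sq f hf, one_smul]

theorem ncard_J (h : Core p D π) [Finite G] {β γ : Ω} (hne : β ≠ γ) :
    {f | f ∈ D ∧ f • β = γ}.ncard = {e | e ∈ D ∧ π e = γ}.ncard := by
  obtain ⟨d, hd, rfl⟩ := h.surj β
  apply Set.ncard_congr (fun f _ => f * d * f⁻¹)
  · rintro f ⟨hf, e⟩
    exact ⟨h.cj d hd f, by rw [h.eqv d hd, e]⟩
  · rintro f f' ⟨hf, e⟩ ⟨hf', e'⟩ ee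
    exact h.inj hd hf hf' (h.ncomm_of_move hf hd (by rw [e]; exact hne.symm))
      (h.ncomm_of_move hf' hd (by rw [e']; exact hne.symm)) ee
  · rintro e ⟨he, rfl⟩
    obtain ⟨f, hf, e1, -⟩ := h.toTP.mid h.odd hd he (fun hc => hne ((h.blk d hd e he).2 hc))
    exact ⟨f, ⟨hf, by rw [← h.eqv d hd, e1]⟩, e1⟩

theorem ncomm_J (h : Core p D π) {β γ : Ω} (hne : β ≠ γ) {f f' : G} (hf : f ∈ D) (hf' : f' ∈ D)
    (e : f • β = γ) (e' : f' • β = γ) (hff : f ≠ f') : ¬ Commute f f' := by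
  intro hc
  have hm := h.mul f hf f' hf' hc hff
  have h1 : (f * f') • β = β := by rw [mul_smul, e', h.swap hf e]
  have h2 : (f * f') • γ = γ := by rw [mul_smul, h.swap hf' e', e]
  exact hne (((h.fix_iff hm).1 h1).symm.trans ((h.fix_iff hm).1 h2))

theorem exists_ne (h : Core p D π) (β : Ω) : ∃ γ, β ≠ γ := by
  obtain ⟨d, hd, rfl⟩ := h.surj β
  obtain ⟨e, he, hn⟩ := h.non d hd
  exact ⟨π e, fun hc => hn ((h.blk d hd e he).1 hc)⟩

/-- a hyperbolic element of order `p` fixing two given points, fixed-point-free on the block -/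
theorem exists_hyp (h : Core p D π) [Finite G] {β γ : Ω} (hne : β ≠ γ) :
    ∃ t : G, t ≠ 1 ∧ t ^ p = 1 ∧ t • β = β ∧ t • γ = γ ∧
      ∀ d ∈ D, π d = β → t * d * t⁻¹ ≠ d := by
  obtain ⟨d, hd, rfl⟩ := h.surj β
  obtain ⟨e, he, rfl⟩ := h.surj γ
  obtain ⟨e', he', hee, hc⟩ := h.two e he
  have hπ : π e' = π e := ((h.blk e he e' he').2 hc).symm
  obtain ⟨f, hf, e1, -⟩ := h.toTP.mid h.odd hd he (fun hc => hne ((h.blk d hd e he).2 hc))
  obtain ⟨f', hf', e2, -⟩ := h.toTP.mid h.odd hd he'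
    (fun hc => hne (((h.blk d hd e' he').2 hc).trans hπ))
  have m1 : f • π d = π e := by rw [← h.eqv d hd, e1]
  have m2 : f' • π d = π e := by rw [← h.eqv d hd, e2, hπ]
  have hff : f ≠ f' := by rintro rfl; exact hee (e2.symm.trans e1)
  have hn := h.ncomm_J hne hf hf' m1 m2 hff
  refine ⟨f * f', fun h1 => hff ?_, (h.pr f hf f' hf').resolve_left hn, ?_, ?_, ?_⟩
  · rw [← inv_of_sq (h.sq f' hf')]; exact eq_inv_of_mul_eq_one_left h1
  · rw [mul_smul, m2, h.swap hf m1]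
  · rw [mul_smul, h.swap hf' m2, m1]
  · intro d' hd' hπ' ee
    apply hff
    apply h.inj hd' hf hf' (h.ncomm_of_move hf hd' (by rw [hπ', m1]; exact hne.symm))
      (h.ncomm_of_move hf' hd' (by rw [hπ', m2]; exact hne.symm))
    have hfi := inv_of_sq (h.sq f hf)
    calc f * d' * f⁻¹ = f * (f * f' * d' * (f * f')⁻¹) * f⁻¹ := by rw [ee]
      _ = (f * f) * (f' * d' * f'⁻¹) * (f * f)⁻¹ := by group
      _ = _ := by rw [h.sq f hf]; group

theorem dvd_V (h : Core p D π) [Finite G] (β : Ω) : p ∣ {e | e ∈ D ∧ π e = β}.ncard := by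
  obtain ⟨γ, hne⟩ := h.exists_ne β
  obtain ⟨t, -, tp, t1, -, tf⟩ := h.exists_hyp hne
  by_contra hn
  obtain ⟨s, ⟨hs, e⟩, hf⟩ := fix1 h.prime (cjP_pow tp) (S := {e | e ∈ D ∧ π e = β})
    (by rintro s ⟨hs, e⟩; exact ⟨h.cj s hs t, by rw [cjP_apply, h.eqv s hs, e, t1]⟩) hn
  exact tf s hs e hf

theorem fixed_in_V (h : Core p D π) {u : G} (hu : u * u = 1) {β : Ω} (hb : u • β = β) {e : G}
    (he : e ∈ D) (hπ : π e = β) (hn : u * e * u⁻¹ ≠ e) :
    e * (u * e * u⁻¹) ∈ D ∧ π (e * (u * e * u⁻¹)) = β ∧ Commute u (e * (u * e * u⁻¹)) := by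
  have h1 := h.cj e he u
  have hc : Commute e (u * e * u⁻¹) := (h.blk e he _ h1).1 (by rw [h.eqv e he, hπ, hb])
  have hm := h.mul e he _ h1 hc hn.symm
  refine ⟨hm, ?_, ?_⟩
  · rw [← hπ]; exact (h.blk _ hm e he).2 ((Commute.refl e).mul_left hc.symm)
  · have hui := inv_of_sq hu
    rw [hui] at hc ⊢
    have e1 : ∀ y : G, u * (u * y) = y := fun y => by rw [← mul_assoc, hu, one_mul]
    have e2 : u * (e * (u * e * u)) = (u * e * u) * e * u := by simp only [mul_assoc]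
    show u * (e * (u * e * u)) = e * (u * e * u) * u
    rw [e2, ← hc.eq]

theorem exists_fixed_V (h : Core p D π) {u : G} (hu : u * u = 1) {β : Ω} (hb : u • β = β) :
    ∃ e ∈ D, π e = β ∧ Commute u e := by
  obtain ⟨e, he, hπ⟩ := h.surj β
  by_cases hn : u * e * u⁻¹ = e
  · exact ⟨e, he, hπ, mul_inv_eq_iff_eq_mul.1 hn⟩
  · obtain ⟨a, b, c⟩ := h.fixed_in_V hu hb he hπ hn
    exact ⟨_, a, b, c⟩

/-- no involution fixes two points -/
theorem odd_two (h : Core p D π) [Finite G] {u : G} (hu : u * u = 1) (hu1 : u ≠ 1) {β γ : Ω}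
    (hne : β ≠ γ) (hb : u • β = β) (hg : u • γ = γ) : False := by
  obtain ⟨x, hx, hxπ, hxc⟩ := h.exists_fixed_V hu hg
  obtain ⟨a, ha, haπ, hac⟩ := h.exists_fixed_V hu hb
  have hax : ¬ Commute a x := fun hc => hne (haπ.symm.trans (((h.blk a ha x hx).2 hc).trans hxπ))
  have uniq : ∀ b ∈ D, π b = β → Commute u b → b = a := by
    intro b hb' hbπ hbc
    by_contra hn
    exact h.min u hu1 (Or.inl (by rw [pow_two, hu])) a ha b hb' x hx
      ((h.blk a ha b hb').1 (haπ.trans hbπ.symm)) (Ne.symm hn) hax hac hbc hxc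
  have step : ∀ e ∈ D, π e = β → e ≠ a → u * e * u⁻¹ = e * a := by
    intro e he heπ hea
    have hn : u * e * u⁻¹ ≠ e := fun hh => hea (uniq e he heπ (mul_inv_eq_iff_eq_mul.1 hh))
    obtain ⟨a1, a2, a3⟩ := h.fixed_in_V hu hb he heπ hn
    rw [← uniq _ a1 a2 a3, ← mul_assoc e e, h.sq e he, one_mul]
  obtain ⟨e, he, hea, hc⟩ := h.two a ha
  have heπ : π e = β := ((h.blk a ha e he).2 hc).symm.trans haπ
  have hsub : {e | e ∈ D ∧ π e = β} ⊆ {a, e, e * a} := by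
    rintro e' ⟨he', he'π⟩
    by_cases h1 : e' = a
    · simp [h1]
    by_cases h2 : e' = e
    · simp [h2]
    have hce : Commute e e' := (h.blk e he e' he').1 (heπ.trans he'π.symm)
    have hca : Commute a e' := (h.blk a ha e' he').1 (haπ.trans he'π.symm)
    have hm := h.mul e he e' he' hce (Ne.symm h2)
    have hmπ : π (e * e') = β := by
      rw [← heπ]; exact (h.blk _ hm e he).2 ((Commute.refl e).mul_left hce.symm)
    have hmc : Commute u (e * e') := by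
      apply mul_inv_eq_iff_eq_mul.1
      calc u * (e * e') * u⁻¹ = (u * e * u⁻¹) * (u * e' * u⁻¹) := by group
        _ = e * (a * e') * a := by rw [step e he heπ hea, step e' he' he'π h1]; simp only [mul_assoc]
        _ = e * e' * (a * a) := by rw [hca.eq]; simp only [mul_assoc]
        _ = e * e' := by rw [h.sq a ha, mul_one]
    have := uniq _ hm hmπ hmc
    right; right
    show e' = e * a
    rw [← this, ← mul_assoc, h.sq e he, one_mul]
  have hle : {e | e ∈ D ∧ π e = β}.ncard ≤ 3 :=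
    (Set.ncard_le_ncard hsub (Set.toFinite _)).trans
      ((Set.ncard_insert_le _ _).trans (by
        have := Set.ncard_insert_le e ({e * a} : Set G)
        rw [Set.ncard_singleton] at this; omega))
  have hpos : 0 < {e | e ∈ D ∧ π e = β}.ncard :=
    (Set.ncard_pos (Set.toFinite _)).2 ⟨a, ha, haπ⟩
  have := Nat.le_of_dvd hpos (h.dvd_V β)
  have := h.five
  omega

/-- a `p`-element fixing two points centralises no involution interchanging them -/
theorem fpf_J (h : Core p D π) [Finite G] {c : G} (hc1 : c ≠ 1) (hcp : c ^ p = 1) {β γ : Ω}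
    (hne : β ≠ γ) (hb : c • β = β) (hg : c • γ = γ) {f : G} (hf : f ∈ D) (e : f • β = γ) :
    ¬ Commute c f := by
  intro hc
  have hfix : cjP c f = f := by rw [cjP_apply, hc.eq, mul_inv_cancel_right]
  have hb' : c⁻¹ • β = β := by rw [inv_smul_eq_iff, hb]
  obtain ⟨f', ⟨hf', e'⟩, hf1, hne'⟩ := fix2 h.prime (cjP_pow hcp) (S := {f | f ∈ D ∧ f • β = γ})
    (by
      rintro s ⟨hs, es⟩
      exact ⟨h.cj s hs c, by rw [cjP_apply, mul_smul, mul_smul, hb', es, hg]⟩)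
    (by rw [h.ncard_J hne]; exact h.dvd_V γ) ⟨hf, e⟩ hfix
  have hcπ : c • π f = π f := by rw [← h.eqv f hf, hc.eq, mul_inv_cancel_right]
  obtain ⟨b, ⟨hb2, eb⟩, hb1, hbne⟩ := fix2 h.prime (cjP_pow hcp) (S := {e | e ∈ D ∧ π e = π f})
    (by rintro s ⟨hs, es⟩; exact ⟨h.cj s hs c, by rw [cjP_apply, h.eqv s hs, es, hcπ]⟩)
    (h.dvd_V _) ⟨hf, rfl⟩ hfix
  exact h.min c hc1 (Or.inr hcp) f hf b hb2 f' hf' ((h.blk f hf b hb2).1 eb.symm) hbne.symm
    (h.ncomm_J hne hf hf' e e' hne'.symm) hc (mul_inv_eq_iff_eq_mul.1 hb1)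
    (mul_inv_eq_iff_eq_mul.1 hf1)

theorem dvd_card (h : Core p D π) [Finite G] [Finite Ω] [Nonempty Ω] :
    p ∣ (Set.univ : Set Ω).ncard := by
  classical
  obtain ⟨α⟩ := ‹Nonempty Ω›
  obtain ⟨x, hx, rfl⟩ := h.surj α
  by_contra hn
  choose r hr hrπ using h.surj
  let A := {y : G // y ∈ D ∧ ¬ Commute x y}
  have hfix : ∀ y : A, ∃ γ : Ω, y.1 • γ = x • γ ∧ x • γ ≠ γ := by
    rintro ⟨y, hy, hxy⟩
    obtain ⟨γ, -, hγ⟩ := fix1 h.prime (smulP_pow (Ω := Ω) ((h.pr x hx y hy).resolve_left hxy))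
      (S := Set.univ) (fun _ _ => trivial) hn
    have hγ' : x • y • γ = γ := by rw [← mul_smul]; exact hγ
    have e1 : y • γ = x • γ := (h.swap hx hγ').symm
    refine ⟨γ, e1, fun e2 => hxy ?_⟩
    exact (h.blk x hx y hy).1 (((h.fix_iff hx).1 e2).trans ((h.fix_iff hy).1 (e1.trans e2)).symm)
  choose γ hγ1 hγ2 using hfix
  have hmem : ∀ (y : G) (ω : Ω), y • ω = x • ω → x • ω ≠ ω →
      y * r ω * y⁻¹ ∈ D ∧ ¬ Commute x (y * r ω * y⁻¹) := by
    intro y ω e1 e2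
    refine ⟨h.cj _ (hr ω) y, fun hc => e2 ?_⟩
    have := (h.blk x hx _ (h.cj _ (hr ω) y)).2 hc
    rw [h.eqv _ (hr ω), hrπ, e1] at this
    have h3 := (h.fix_iff hx).2 this
    rw [smul_smul, h.sq x hx, one_smul] at h3
    exact h3.symm
  have hinj : ∀ (y y' : G) (ω ω' : Ω), y ∈ D → y' ∈ D → y • ω = x • ω → x • ω ≠ ω →
      y' • ω' = x • ω' → y * r ω * y⁻¹ = y' * r ω' * y'⁻¹ → y = y' := by
    intro y y' ω ω' hy hy' e1 e2 e3 ee
    have := congrArg π ee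
    rw [h.eqv _ (hr ω), h.eqv _ (hr ω'), hrπ, hrπ, e1, e3, smul_left_cancel_iff] at this
    subst this
    exact h.inj (hr ω) hy hy' (h.ncomm_of_move hy (hr ω) (by rw [hrπ, e1]; exact e2))
      (h.ncomm_of_move hy' (hr ω) (by rw [hrπ, e3]; exact e2)) ee
  let F : A → A := fun y => ⟨y.1 * r (γ y) * y.1⁻¹, hmem y.1 _ (hγ1 y) (hγ2 y)⟩
  have hF : Function.Injective F := fun y y' ee =>
    Subtype.ext (hinj _ _ _ _ y.2.1 y'.2.1 (hγ1 y) (hγ2 y) (hγ1 y') (congrArg Subtype.val ee))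
  obtain ⟨ω, hω⟩ := h.exists_ne (π x)
  have hω' : x • ω ≠ ω := fun e => hω ((h.fix_iff hx).1 e)
  obtain ⟨y, hy⟩ := Finite.injective_iff_surjective.1 hF ⟨x * r ω * x⁻¹, hmem x ω rfl hω'⟩
  have := hinj _ _ _ _ y.2.1 hx (hγ1 y) (hγ2 y) rfl (congrArg Subtype.val hy)
  exact y.2.2 (by rw [this])

theorem pow_mem_of_conj {P : Subgroup G} {g : G} (hg : ∀ y ∈ P, g * y * g⁻¹ ∈ P) (n : ℕ) :
    ∀ y ∈ P, g ^ n * y * (g ^ n)⁻¹ ∈ P := by
  induction n with
  | zero => intro y hy; simpa using hy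
  | succ n ih =>
    intro y hy
    have := hg _ (ih y hy)
    convert this using 1
    rw [pow_succ']; group

/-- for a maximal `p`-subgroup fixing two points, any two fixed points are interchanged by a
member of `D` inverting it -/
theorem exists_inv (h : Core p D π) [Finite G] {P : Subgroup G} (hP : IsPGroup p P)
    (hmax : ∀ Q : Subgroup G, IsPGroup p Q → P ≤ Q → ∀ β γ : Ω, β ≠ γ →
      (∀ y ∈ Q, y • β = β) → (∀ y ∈ Q, y • γ = γ) → Q ≤ P)
    {β γ : Ω} (hne : β ≠ γ) (hb : ∀ y ∈ P, y • β = β) (hg : ∀ y ∈ P, y • γ = γ) :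
    ∃ f ∈ D, f • β = γ ∧ ∀ y ∈ P, f * y * f⁻¹ = y⁻¹ := by
  have := Fact.mk h.prime
  obtain ⟨d, hd, rfl⟩ := h.surj β
  obtain ⟨e, he, rfl⟩ := h.surj γ
  obtain ⟨f0, hf0, e0, -⟩ := h.toTP.mid h.odd hd he (fun hc => hne ((h.blk d hd e he).2 hc))
  have m0 : f0 • π d = π e := by rw [← h.eqv d hd, e0]
  have m0' := h.swap hf0 m0
  have hf0i := inv_of_sq (h.sq f0 hf0)
  generalize π d = β at *
  generalize π e = γ at *
  let H : Subgroup G := MulAction.stabilizer G β ⊓ MulAction.stabilizer G γ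
  have hodd : ∀ u ∈ H, Odd (orderOf u) := by
    intro u hu
    by_contra hn
    obtain ⟨m, hm⟩ := Nat.not_odd_iff_even.1 hn
    have hpos := orderOf_pos u
    have hH := H.pow_mem hu m
    refine h.odd_two (u := u ^ m) (by rw [← pow_add, ← hm, pow_orderOf_eq_one]) ?_ hne hH.1 hH.2
    exact pow_ne_one_of_lt_orderOf (by omega) (by omega)
  let P' : Subgroup G := P.map (MulAut.conj f0).toMonoidHom
  have hP' : IsPGroup p P' := hP.map _
  have hP'H : P' ≤ H := by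
    rintro _ ⟨y, hy, rfl⟩
    constructor
    · show (f0 * y * f0⁻¹) • β = β
      rw [hf0i, mul_smul, mul_smul, m0, hg y hy, m0']
    · show (f0 * y * f0⁻¹) • γ = γ
      rw [hf0i, mul_smul, mul_smul, m0', hb y hy, m0]
  have hPH : P ≤ H := fun y hy => ⟨hb y hy, hg y hy⟩
  obtain ⟨S, hS⟩ := (hP.comap_subtype (K := H)).exists_le_sylow
  obtain ⟨S', hS'⟩ := (hP'.comap_subtype (K := H)).exists_le_sylow
  obtain ⟨k, hk⟩ := MulAction.exists_smul_eq H S' S
  have hSP : (S : Subgroup H).map H.subtype ≤ P := by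
    apply hmax _ (S.isPGroup'.map _) (fun y hy => ⟨⟨y, hPH hy⟩, hS hy, rfl⟩) β γ hne
    · rintro _ ⟨y, -, rfl⟩; exact y.2.1
    · rintro _ ⟨y, -, rfl⟩; exact y.2.2
  have hgP : ∀ y ∈ P, (k.1 * f0) * y * (k.1 * f0)⁻¹ ∈ P := by
    intro y hy
    have h1 : f0 * y * f0⁻¹ ∈ P' := ⟨y, hy, rfl⟩
    have h2 : (⟨f0 * y * f0⁻¹, hP'H h1⟩ : H) ∈ (S' : Subgroup H) := hS' h1
    have h3 : k * (⟨f0 * y * f0⁻¹, hP'H h1⟩ : H) * k⁻¹ ∈ (S : Subgroup H) := by
      rw [← hk]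
      exact Subgroup.smul_mem_pointwise_smul _ (MulAut.conj k) _ h2
    have h4 := hSP ⟨_, h3, rfl⟩
    convert h4 using 1
    simp only [Subgroup.coe_subtype, Subgroup.coe_mul, Subgroup.coe_inv]
    group
  set g := k.1 * f0 with hgdef
  have g1 : g • β = γ := by rw [hgdef, mul_smul, m0]; exact k.2.2
  have g2 : g • γ = β := by rw [hgdef, mul_smul, m0']; exact k.2.1
  have hgg : g * g ∈ H := ⟨by show (g * g) • β = β; rw [mul_smul, g1, g2],
    by show (g * g) • γ = γ; rw [mul_smul, g2, g1]⟩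
  obtain ⟨m, hm⟩ := hodd _ hgg
  have hv : g ^ (2 * m + 1) * g ^ (2 * m + 1) = 1 := by
    rw [← hm, ← (Commute.refl g).mul_pow, pow_orderOf_eq_one]
  have hmH := H.pow_mem hgg m
  have v1 : g ^ (2 * m + 1) • β = γ := by
    rw [pow_succ, pow_mul, pow_two, mul_smul, g1]; exact hmH.2
  have v2 : g ^ (2 * m + 1) • γ = β := by
    rw [pow_succ, pow_mul, pow_two, mul_smul, g2]; exact hmH.1
  have vP := pow_mem_of_conj hgP (2 * m + 1)
  generalize g ^ (2 * m + 1) = v at hv v1 v2 vP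
  have hfv : f0 * v ∈ H := ⟨by show (f0 * v) • β = β; rw [mul_smul, v1, m0'],
    by show (f0 * v) • γ = γ; rw [mul_smul, v2, m0]⟩
  obtain ⟨j, hj⟩ := hodd _ hfv
  have hvD : v ∈ D := by
    have h1 := h.cj f0 hf0 ((f0 * v) ^ (j + 1))⁻¹
    have h2 := TP.inv_pow_conj (TP.dih_inv (h.sq f0 hf0) hv) (h.sq f0 hf0) (j + 1)
    rw [inv_inv, ← h2] at h1
    convert h1 using 1
    calc v = f0 * ((f0 * v) ^ orderOf (f0 * v) * (f0 * v)) := by
          rw [pow_orderOf_eq_one, one_mul, ← mul_assoc, h.sq f0 hf0, one_mul]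
      _ = f0 * ((f0 * v) ^ (j + 1) * (f0 * f0) * (f0 * v) ^ (j + 1)) := by
          rw [h.sq f0 hf0, mul_one, ← pow_add, ← pow_succ, hj]; congr 2; ring
      _ = _ := by simp only [mul_assoc]
  refine ⟨v, hvD, v1, ?_⟩
  let φ : P →* P := MonoidHom.mk' (fun y => ⟨v * y * v⁻¹, vP y y.2⟩)
    (fun a b => Subtype.ext (by simp only [Subgroup.coe_mul]; group))
  have hφ : MonoidHom.FixedPointFree φ := by
    intro y hy
    by_contra hy1
    have hc : Commute (y : G) v := (mul_inv_eq_iff_eq_mul.1 (congrArg Subtype.val hy) :).symm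
    obtain ⟨n, hn⟩ := (IsPGroup.iff_orderOf.1 hP) y
    have hn0 : n ≠ 0 := by
      rintro rfl
      exact hy1 (orderOf_eq_one_iff.1 (by simpa using hn))
    obtain ⟨n, rfl⟩ := Nat.exists_eq_succ_of_ne_zero hn0
    have ho : orderOf (y : G) = p ^ (n + 1) := by rw [Subgroup.orderOf_coe, hn]
    have hyP := P.pow_mem y.2 (p ^ n)
    refine h.fpf_J (c := (y : G) ^ p ^ n) ?_ ?_ hne (hb _ hyP) (hg _ hyP) hvD v1 (hc.pow_left _)
    · exact pow_ne_one_of_lt_orderOf (pow_pos h.prime.pos n).ne'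
        (by rw [ho]; exact Nat.pow_lt_pow_right h.prime.one_lt (by omega))
    · rw [← pow_mul, ← pow_succ, ← ho, pow_orderOf_eq_one]
  have hinv : Function.Involutive φ := by
    intro y
    apply Subtype.ext
    show v * (v * y * v⁻¹) * v⁻¹ = y
    calc v * (v * y * v⁻¹) * v⁻¹ = (v * v) * y * (v * v)⁻¹ := by group
      _ = y := by rw [hv]; group
  intro y hy
  exact congrArg Subtype.val (congrFun (hφ.coe_eq_inv_of_involutive hinv) ⟨y, hy⟩)

theorem false (h : Core p D π) [Finite G] [Finite Ω] [Nonempty Ω] : False := by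
  have := Fact.mk h.prime
  obtain ⟨β0⟩ := ‹Nonempty Ω›
  obtain ⟨γ0, hne0⟩ := h.exists_ne β0
  obtain ⟨t, t1, tp, tb, tg, -⟩ := h.exists_hyp hne0
  have hT : IsPGroup p (Subgroup.zpowers t) :=
    IsPGroup.of_card (n := 1) (by rw [Nat.card_zpowers, pow_one]; exact orderOf_eq_prime tp t1)
  have hz : ∀ ω : Ω, t • ω = ω → ∀ y ∈ Subgroup.zpowers t, y • ω = ω := fun ω hω y hy =>
    (Subgroup.zpowers_le.2 (show t ∈ MulAction.stabilizer G ω from hω) hy :)
  obtain ⟨P, hle, ⟨hP, β, γ, hne, hb, hg⟩, hmx⟩ := Finite.exists_le_maximal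
    (p := fun Q : Subgroup G => IsPGroup p Q ∧ ∃ β γ : Ω, β ≠ γ ∧ (∀ y ∈ Q, y • β = β) ∧
      ∀ y ∈ Q, y • γ = γ) (a := Subgroup.zpowers t) ⟨hT, β0, γ0, hne0, hz _ tb, hz _ tg⟩
  have hmax : ∀ Q : Subgroup G, IsPGroup p Q → P ≤ Q → ∀ β γ : Ω, β ≠ γ →
      (∀ y ∈ Q, y • β = β) → (∀ y ∈ Q, y • γ = γ) → Q ≤ P :=
    fun Q hQ hPQ β γ hne h1 h2 => hmx ⟨hQ, β, γ, hne, h1, h2⟩ hPQ
  have htP : t ∈ P := hle (Subgroup.mem_zpowers t)
  let Φ : Set Ω := {ω | ∀ y ∈ P, y • ω = ω}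
  have hΦ : p ∣ Φ.ncard := by
    have h1 := hP.card_modEq_card_fixedPoints Ω
    have h2 : MulAction.fixedPoints P Ω = Φ := by
      ext ω; exact ⟨fun hh y hy => hh ⟨y, hy⟩, fun hh y => hh y.1 y.2⟩
    rw [h2, Nat.card_coe_set_eq] at h1
    have h3 := h.dvd_card
    rw [Set.ncard_univ] at h3
    exact (Nat.modEq_zero_iff_dvd.1 (h1.symm.trans (Nat.modEq_zero_iff_dvd.2 h3)))
  have hmaps : ∀ v : G, v * v = 1 → (∀ y ∈ P, v * y * v⁻¹ ∈ P) →
      ∀ s ∈ Φ, MulAction.toPermHom G Ω v s ∈ Φ := by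
    intro v hv hn s hs y hy
    show y • v • s = v • s
    have := hs _ (hn y hy)
    rw [inv_of_sq hv] at this
    calc y • v • s = ((v * v) * y * v) • s := by rw [hv, one_mul, mul_smul]
      _ = v • (v * y * v) • s := by simp only [smul_smul, mul_assoc]
      _ = v • s := by rw [this]
  have ht4 : t ^ 4 ≠ 1 := fun h4 => t1 (eq_one_of_pow_four h.odd h4 tp)
  obtain ⟨ε, hε, hε1, hε2⟩ : ∃ ε ∈ Φ, ε ≠ β ∧ ε ≠ γ := by
    by_contra hn
    push Not at hn
    have hsub : Φ ⊆ {β, γ} := fun ω hω => by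
      by_cases h1 : ω = β
      · simp [h1]
      · simp [hn ω hω h1]
    have h1 := Set.ncard_le_ncard hsub (Set.toFinite _)
    rw [Set.ncard_pair hne] at h1
    have h2 := Nat.le_of_dvd ((Set.ncard_pos (Set.toFinite Φ)).2 ⟨β, hb⟩) hΦ
    have := h.five
    omega
  obtain ⟨f, hf, f1, f2⟩ := h.exists_inv hP hmax hne hb hg
  obtain ⟨g, hg', g1, g2⟩ := h.exists_inv hP hmax hε1.symm hb hε
  obtain ⟨k, hk, k1, k2⟩ := h.exists_inv hP hmax hε2 hε hg
  have heven : 2 ∣ Φ.ncard := by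
    by_contra hn
    obtain ⟨δ, hδ, e⟩ := fix1 Nat.prime_two (smulP_pow (Ω := Ω) (c := f)
      (by rw [pow_two, h.sq f hf])) (hmaps f (h.sq f hf) (fun y hy => by
        rw [f2 y hy]; exact P.inv_mem hy)) hn
    have e1 : π f = δ := (h.fix_iff hf).1 e
    have hc : Commute (t * f * t⁻¹) f :=
      (h.blk _ (h.cj f hf t) f hf).1 (by rw [h.eqv f hf, e1, hδ t htP])
    have e2 : t * f * t⁻¹ * f = t ^ 2 := by
      have := f2 _ (P.inv_mem htP)
      rw [inv_of_sq (h.sq f hf), inv_inv] at this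
      calc t * f * t⁻¹ * f = t * (f * t⁻¹ * f) := by simp only [mul_assoc]
        _ = t ^ 2 := by rw [this, pow_two]
    apply ht4
    calc t ^ 4 = (t * f * t⁻¹ * f) ^ 2 := by rw [e2, ← pow_mul]
      _ = 1 := by rw [hc.mul_pow, pow_two, pow_two, h.sq _ (h.cj f hf t), h.sq f hf, one_mul]
  have u1 : (k * g * f) • γ = γ := by rw [mul_smul, mul_smul, h.swap hf f1, g1, k1]
  have u2 : ∀ y ∈ P, (k * g * f) * y * (k * g * f)⁻¹ = y⁻¹ := by
    intro y hy
    calc (k * g * f) * y * (k * g * f)⁻¹ = k * (g * (f * y * f⁻¹) * g⁻¹) * k⁻¹ := by group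
      _ = y⁻¹ := by rw [f2 y hy, g2 _ (P.inv_mem hy), inv_inv, k2 y hy]
  generalize k * g * f = u at u1 u2
  have uP : ∀ y ∈ P, u * y * u⁻¹ ∈ P := fun y hy => by rw [u2 y hy]; exact P.inv_mem hy
  have u3 : ∀ n : ℕ, u ^ (2 * n + 1) * t * (u ^ (2 * n + 1))⁻¹ = t⁻¹ := by
    intro n
    induction n with
    | zero => simpa using u2 t htP
    | succ n ih =>
      calc u ^ (2 * (n + 1) + 1) * t * (u ^ (2 * (n + 1) + 1))⁻¹
          = u * (u * (u ^ (2 * n + 1) * t * (u ^ (2 * n + 1))⁻¹) * u⁻¹) * u⁻¹ := by group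
        _ = t⁻¹ := by rw [ih, u2 _ (P.inv_mem htP), inv_inv, u2 t htP]
  rcases Nat.even_or_odd (orderOf u) with ⟨m, hm⟩ | ⟨m, hm⟩
  · have hpos := orderOf_pos u
    have hv : u ^ m * u ^ m = 1 := by rw [← pow_add, ← hm, pow_orderOf_eq_one]
    have hv1 : u ^ m ≠ 1 := pow_ne_one_of_lt_orderOf (by omega) (by omega)
    have hvγ : u ^ m • γ = γ := (MulAction.stabilizer G γ).pow_mem u1 m
    obtain ⟨δ, -, e, hne'⟩ := fix2 Nat.prime_two (smulP_pow (Ω := Ω) (c := u ^ m)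
      (by rw [pow_two, hv])) (hmaps _ hv (pow_mem_of_conj uP m)) heven hg hvγ
    exact h.odd_two hv hv1 hne' e hvγ
  · have := u3 m
    rw [← hm, pow_orderOf_eq_one, one_mul, inv_one, mul_one] at this
    apply ht4
    rw [show (4 : ℕ) = 2 * 2 from rfl, pow_mul, pow_two t]
    nth_rewrite 1 [this]
    rw [inv_mul_cancel, one_pow]

end Core

end Cfsg.Agent.Spor.PT
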