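import Mathlib
import Cfsg.Agent.Spor.PT.Core
import Cfsg.Agent.GT.Zipper
import Cfsg.Agent.Inv.Dihedral

/-!
# Sets of {2,p}-transpositions (`p ≥ 5`), part 2

For commuting `a, b ∈ D` and `x ∈ D` commuting with neither, `(x a b)^4 = 1`; commuting is an
equivalence relation on each class and the product of two commuting members lies in `O₂`.
-/

set_option autoImplicit false

namespace Cfsg.Agent.Spor.PT

universe u
variable {G : Type u} [Group G] {p : ℕ} {D : Set G}

/-- blocks of the commuting relation -/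
def Blk (D : Set G) : Type u := {V : Set G // ∃ d ∈ D, V = {e | e ∈ D ∧ Commute d e}}

theorem core_false [Finite G] (h : TP p D) (hp : p.Prime) (h5 : 5 ≤ p) (ne : ∀ d ∈ D, d ≠ 1)
    (tr : ∀ a ∈ D, ∀ b ∈ D, ∀ c ∈ D, Commute a b → Commute b c → Commute a c)
    (mul : ∀ a ∈ D, ∀ b ∈ D, Commute a b → a ≠ b → a * b ∈ D)
    (two : ∀ d ∈ D, ∃ e ∈ D, e ≠ d ∧ Commute d e) (non : ∀ d ∈ D, ∃ e ∈ D, ¬ Commute d e)
    (min : ∀ c : G, c ≠ 1 → (c ^ 2 = 1 ∨ c ^ p = 1) → ∀ a ∈ D, ∀ b ∈ D, ∀ x ∈ D, Commute a b →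
      a ≠ b → ¬ Commute a x → Commute c a → Commute c b → Commute c x → False)
    {a0 : G} (ha0 : a0 ∈ D) : False := by
  classical
  have key : ∀ d ∈ D, ∀ g : G, {e | g⁻¹ * e * g ∈ {e | e ∈ D ∧ Commute d e}} =
      {e | e ∈ D ∧ Commute (g * d * g⁻¹) e} := by
    intro d hd g
    ext e
    constructor
    · rintro ⟨h1, h2⟩
      refine ⟨by simpa [mul_assoc] using h.cj _ h1 g, ?_⟩
      simpa [mul_assoc] using h2.conj g
    · rintro ⟨h1, h2⟩
      refine ⟨by simpa using h.cj _ h1 g⁻¹, ?_⟩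
      simpa [mul_assoc] using h2.conj g⁻¹
  let : MulAction G (Blk D) :=
    { smul := fun g V => ⟨{e | g⁻¹ * e * g ∈ V.1}, by
        obtain ⟨d, hd, e⟩ := V.2
        exact ⟨g * d * g⁻¹, h.cj d hd g, by rw [e, key d hd]⟩⟩
      one_smul := fun V => Subtype.ext (by
        ext e
        show 1⁻¹ * e * 1 ∈ V.1 ↔ _
        simp)
      mul_smul := fun g k V => Subtype.ext (by
        ext e
        show (g * k)⁻¹ * e * (g * k) ∈ V.1 ↔ k⁻¹ * (g⁻¹ * e * g) * k ∈ V.1
        simp [mul_assoc]) }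
  have : Finite (Blk D) := by unfold Blk; infer_instance
  let π : G → Blk D := fun d => if hd : d ∈ D then ⟨_, d, hd, rfl⟩ else ⟨_, a0, ha0, rfl⟩
  have hπ : ∀ d ∈ D, (π d).1 = {e | e ∈ D ∧ Commute d e} := fun d hd =>
    congrArg Subtype.val (dif_pos hd : π d = ⟨_, d, hd, rfl⟩)
  have : Nonempty (Blk D) := ⟨π a0⟩
  refine Core.false (p := p) (D := D) (π := π)
    { toTP := h, prime := hp, five := h5, ne := ne, mul := mul, two := two, non := non, min := min
      eqv := ?_, blk := ?_, surj := ?_ }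
  · intro d hd g
    apply Subtype.ext
    rw [hπ _ (h.cj d hd g), ← key d hd, ← hπ d hd]
    rfl
  · intro d hd e he
    constructor
    · intro ee
      have : e ∈ (π e).1 := by rw [hπ e he]; exact ⟨he, Commute.refl e⟩
      rw [← ee, hπ d hd] at this
      exact this.2
    · intro hc
      apply Subtype.ext
      rw [hπ d hd, hπ e he]
      ext y
      exact ⟨fun hy => ⟨hy.1, tr e he d hd y hy.1 hc.symm hy.2⟩,
        fun hy => ⟨hy.1, tr d hd e he y hy.1 hc hy.2⟩⟩
  · rintro ⟨V, d, hd, rfl⟩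
    exact ⟨d, hd, Subtype.ext (hπ d hd)⟩

theorem sq_mul {a b : G} (ha : a * a = 1) (hb : b * b = 1) (hc : Commute a b) :
    a * b * (a * b) = 1 := by
  rw [← pow_two, hc.mul_pow, pow_two, pow_two, ha, hb, one_mul]

theorem eq_of_mul_eq_one {a b : G} (hb : b * b = 1) (h : a * b = 1) : a = b := by
  rw [← inv_of_sq hb]; exact eq_inv_of_mul_eq_one_left h

theorem mem_zpowers_pow {r : G} {n : ℕ} (hr : r ^ p = 1) (hn : n.Coprime p) :
    ∃ m : ℕ, (r ^ n) ^ m = r :=
  exists_pow_eq_self_of_coprime (Nat.Coprime.coprime_dvd_right (orderOf_dvd_of_pow_eq_one hr) hn)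

namespace TP

theorem lemA (h : TP p D) (hp : Odd p) {a b d : G} (ha : a ∈ D) (hb : b ∈ D) (hd : d ∈ D)
    (hab : Commute a b) (hne : a ≠ b) (hz : Commute d (a * b)) : Commute d a := by
  rcases h.pr d hd a ha with h1 | h1
  · exact h1
  rcases h.pr d hd b hb with h2 | h2
  · have := hz.mul_right h2
    rwa [mul_assoc, h.sq b hb, mul_one] at this
  · exfalso
    have e : d * b = (d * a) * (a * b) := by
      rw [mul_assoc, ← mul_assoc a, h.sq a ha, one_mul]
    have hc : Commute (d * a) (a * b) := hz.mul_left ((Commute.refl a).mul_right hab)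
    rw [e, hc.mul_pow, h1, one_mul] at h2
    obtain ⟨m, rfl⟩ := hp
    rw [pow_succ, pow_mul, pow_two, sq_mul (h.sq a ha) (h.sq b hb) hab, one_pow, one_mul] at h2
    exact hne (eq_of_mul_eq_one (h.sq b hb) h2)

end TP

/-- the basic relation, for pairs whose product is not in `D` -/
def PT1 (D : Set G) : Prop := ∀ a ∈ D, ∀ b ∈ D, ∀ x ∈ D, Commute a b → a * b ∉ D →
  ¬ Commute x a → ¬ Commute x b → (x * (a * b)) ^ 4 = 1

/-- the basic relation -/
def T1 (D : Set G) : Prop := ∀ a ∈ D, ∀ b ∈ D, ∀ x ∈ D, Commute a b →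
  ¬ Commute x a → ¬ Commute x b → (x * (a * b)) ^ 4 = 1

theorem comm_of_four' {x z : G} (hx : x * x = 1) (hz : z * z = 1) (h : (x * z) ^ 4 = 1) :
    Commute (x * z * x) z := by
  have h1 : (x * z * x) * (x * z * x) = 1 := by
    calc (x * z * x) * (x * z * x) = x * (z * (x * x) * z) * x := by simp only [mul_assoc]
      _ = 1 := by rw [hx, mul_one, hz, mul_one, hx]
  have h2 : (x * z * x * z) * (x * z * x * z) = 1 := by
    rw [← h]; simp only [pow_succ, pow_zero, one_mul, mul_assoc]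
  show x * z * x * z = z * (x * z * x)
  rw [← inv_of_sq h2, mul_inv_rev, inv_of_sq hz, inv_of_sq h1]

theorem forb (h : TP p D) (hp : p.Prime) (h5 : 5 ≤ p) (h1 : PT1 D) {a b c x : G} (ha : a ∈ D)
    (hb : b ∈ D) (hc : c ∈ D) (hx : x ∈ D) (hab : Commute a b) (hac : Commute a c)
    (hbc : ¬ Commute b c) (hxa : ¬ Commute x a) (hxb : ¬ Commute x b) : False := by
  have ho : Odd p := hp.odd_of_ne_two (by omega)
  have sa := h.sq a ha
  have sb := h.sq b hb
  have sx := h.sq x hx
  have hne : a ≠ b := by rintro rfl; exact hbc hac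
  have hzD : a * b ∉ D := by
    intro hz
    have e : b * (a * b) = a := by rw [← mul_assoc, ← hab.eq, mul_assoc, sb, mul_one]
    refine hbc (h.lemA ho hb hz hc (hab.symm.mul_right (Commute.refl b)) ?_
      (by rw [e]; exact hac.symm)).symm
    intro e2
    have : a = 1 := by rw [← e, ← e2, sb]
    exact hxa (by rw [this]; exact Commute.one_right x)
  have sz := sq_mul sa sb hab
  have hyz := comm_of_four' sx sz (h1 a ha b hb x hx hab hzD hxa hxb)
  have hza : Commute (a * b) a := (Commute.refl a).mul_left hab.symm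
  have eb : b = a * (a * b) := by rw [← mul_assoc, sa, one_mul]
  have sy : (x * (a * b) * x) * (x * (a * b) * x) = 1 := by
    calc _ = x * ((a * b) * (x * x) * (a * b)) * x := by simp only [mul_assoc]
      _ = 1 := by rw [sx, mul_one, sz, mul_one, sx]
  have n1 : (x * (a * b) * x) * b * (x * (a * b) * x)⁻¹ ≠ b := by
    intro e
    have c1 : Commute (x * (a * b) * x) b := mul_inv_eq_iff_eq_mul.1 e
    have c2 : Commute (x * b * x⁻¹) (b * a) := by
      have := c1.symm.conj x
      rw [inv_of_sq sx] at this ⊢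
      rw [← hab.eq]
      convert this using 1
      calc a * b = (x * x) * (a * b) * (x * x) := by rw [sx, one_mul, mul_one]
        _ = _ := by simp only [mul_assoc]
    exact hxb (h.comm_of_conj ho hx hb (h.lemA ho hb ha (h.cj b hb x) hab.symm hne.symm c2))
  have n2 : (x * (a * b) * x) * a * (x * (a * b) * x)⁻¹ ≠ b := by
    intro e
    rw [inv_of_sq sy] at e
    nth_rewrite 3 [eb] at e
    generalize hz : a * b = z at e sz hyz hza sy
    have l1 : ∀ y : G, a * (a * y) = y := fun y => by rw [← mul_assoc, sa, one_mul]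
    have l2 : ∀ y : G, x * (x * y) = y := fun y => by rw [← mul_assoc, sx, one_mul]
    have l3 : ∀ y : G, z * (z * y) = y := fun y => by rw [← mul_assoc, sz, one_mul]
    have e1 : a * (x * z * x) * a = z * (x * z * x) := by
      calc a * (x * z * x) * a = a * ((x * z * x) * a * (x * z * x)) * (x * z * x) := by
            simp only [mul_assoc, l2, l3, sx, mul_one]
        _ = z * (x * z * x) := by rw [e, l1]
    have e2 : x * (a * (x * z * x) * a) * x = (x * z * x) * z := by
      rw [e1]; simp only [mul_assoc, l2, sx, mul_one]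
    have az : a * z * a = z := by rw [← hza.eq, mul_assoc, sa, mul_one]
    have e3 : a * (x * (a * (x * z * x) * a) * x) * a = x * z * x := by
      calc _ = (a * (x * z * x) * a) * (a * z * a) := by
            rw [e2]; simp only [mul_assoc, l1]
        _ = x * z * x := by rw [e1, az, mul_assoc z, hyz.eq, l3]
    have e4 : Commute ((x * a) ^ 3) z := by
      show (x * a) ^ 3 * z = z * (x * a) ^ 3
      calc (x * a) ^ 3 * z = x * a * x * a * x * (a * z * a) * a := by
            simp only [pow_succ, pow_zero, one_mul, mul_assoc, sa, mul_one]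
        _ = x * (a * (x * (a * (x * z * x) * a) * x) * a) * (a * x * a * x * a) := by
            rw [az]; simp only [mul_assoc, l1, l2]
        _ = z * (x * a) ^ 3 := by
            rw [e3]; simp only [pow_succ, pow_zero, one_mul, mul_assoc, l2]
    obtain ⟨m, hm⟩ := mem_zpowers_pow (n := 3) ((h.pr x hx a ha).resolve_left hxa)
      ((Nat.coprime_primes Nat.prime_three hp).2 (by omega))
    have e5 : Commute (x * a) z := by rw [← hm]; exact e4.pow_left m
    have e6 : Commute x z := by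
      have := e5.mul_left hza.symm
      rwa [mul_assoc, sa, mul_one] at this
    exact hxa (h.lemA ho ha hb hx hab hne (hz ▸ e6))
  have hprod : ((x * (a * b) * x) * a * (x * (a * b) * x)⁻¹) *
      ((x * (a * b) * x) * b * (x * (a * b) * x)⁻¹) = a * b := by
    calc _ = (x * (a * b) * x) * (a * b) * (x * (a * b) * x)⁻¹ := by group
      _ = a * b := by rw [hyz.eq, mul_inv_cancel_right]
  have hcm := hab.conj (x * (a * b) * x)
  have m1 := h.cj a ha (x * (a * b) * x)
  have m2 := h.cj b hb (x * (a * b) * x)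
  generalize (x * (a * b) * x) * a * (x * (a * b) * x)⁻¹ = b1 at *
  generalize (x * (a * b) * x) * b * (x * (a * b) * x)⁻¹ = b2 at *
  have key : ∀ b1 ∈ D, ∀ b2 ∈ D, Commute b1 b2 → b1 * b2 = a * b → b1 ≠ b → ¬ Commute c b2 := by
    intro b1 m1 b2 m2 hcm hprod n hcb
    have z1 : Commute b1 (a * b) := by rw [← hprod]; exact (Commute.refl b1).mul_right hcm
    have c1 : Commute b1 a := h.lemA ho ha hb m1 hab hne z1
    have c2 : Commute b1 b := h.lemA ho hb ha m1 hab.symm hne.symm (hab.eq ▸ z1)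
    have e : a * b2 = b * b1 := by
      calc a * b2 = a * (b1 * (b1 * b2)) := by rw [← mul_assoc b1, h.sq b1 m1, one_mul]
        _ = (a * a) * (b1 * b) := by rw [hprod, ← mul_assoc b1, c1.eq]; simp only [mul_assoc]
        _ = b * b1 := by rw [sa, one_mul, c2.eq]
    exact hbc (h.lemA ho hb m1 hc c2.symm n.symm (e ▸ hac.symm.mul_right hcb)).symm
  have k1 := key b1 m1 b2 m2 hcm hprod n2
  have k2 := key b2 m2 b1 m1 hcm.symm (hcm.eq ▸ hprod) n1
  have h4 := h1 b1 m1 b2 m2 c hc hcm (hprod ▸ hzD) k2 k1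
  rw [hprod, ← mul_assoc, ← hac.eq, mul_assoc, (hac.mul_right hab).mul_pow,
    show (4 : ℕ) = 2 * 2 from rfl, pow_mul a, pow_two a, sa, one_pow, one_mul] at h4
  exact hbc (h.comm_of_four ho hc hb h4).symm

theorem reach (h : TP p D) (hgen : Subgroup.closure D = ⊤) {a : G} (ha : a ∈ D)
    (g : G) : Relation.ReflTransGen (fun u v => u ∈ D ∧ v ∈ D ∧ ¬ Commute u v) a (g * a * g⁻¹) := by
  have step : ∀ d ∈ D, ∀ g : G,
      Relation.ReflTransGen (fun u v => u ∈ D ∧ v ∈ D ∧ ¬ Commute u v) a (g * a * g⁻¹) →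
      Relation.ReflTransGen (fun u v => u ∈ D ∧ v ∈ D ∧ ¬ Commute u v) a
        ((d * g) * a * (d * g)⁻¹) := by
    intro d hd g ih
    have hb := h.cj a ha g
    have e : (d * g) * a * (d * g)⁻¹ = d * (g * a * g⁻¹) * d⁻¹ := by group
    rw [e]
    generalize g * a * g⁻¹ = b at *
    by_cases hc : Commute d b
    · rwa [hc.eq, mul_inv_cancel_right]
    · refine (ih.tail ⟨hb, hd, fun hh => hc hh.symm⟩).tail ⟨hd, h.cj b hb d, fun hh => hc ?_⟩
      simpa [mul_assoc] using hh.conj d⁻¹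
  have hg : g ∈ Subgroup.closure D := hgen ▸ Subgroup.mem_top g
  induction hg using Subgroup.closure_induction_left with
  | one => simpa using Relation.ReflTransGen.refl
  | mul_left d hd g _ ih => exact step d hd g ih
  | inv_mul_cancel d hd g _ ih => rw [inv_of_sq (h.sq d hd)]; exact step d hd g ih

theorem trans_of (h : TP p D) (hp : p.Prime) (h5 : 5 ≤ p) (h1 : PT1 D)
    (hgen : Subgroup.closure D = ⊤) (hcl : ∀ a ∈ D, ∀ b ∈ D, ∃ g : G, g * a * g⁻¹ = b) :
    ∀ a ∈ D, ∀ b ∈ D, ∀ c ∈ D, Commute a b → Commute b c → Commute a c := by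
  intro b hb a ha c hc hba hac
  by_contra hbc
  obtain ⟨g, rfl⟩ := hcl a ha b hb
  have hr := reach h hgen ha g
  have key : ∀ b, Relation.ReflTransGen (fun u v => u ∈ D ∧ v ∈ D ∧ ¬ Commute u v) a b →
      Commute a b → ∀ c ∈ D, Commute a c → Commute b c := by
    intro b hr
    induction hr with
    | refl => exact fun _ c _ hh => hh
    | @tail b' b _ hR ih =>
      intro hab c hc hac
      by_contra hbc
      by_cases hab' : Commute a b'
      · exact hR.2.2 (ih hab' b hR.2.1 hab)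
      · exact forb h hp h5 h1 ha hR.2.1 hc hR.1 hab hac hbc (fun hh => hab' hh.symm) hR.2.2
  exact hbc (key _ hr hba.symm c hc hac)

theorem mem_pCore [Finite G] (h : TP p D)
    (tr : ∀ a ∈ D, ∀ b ∈ D, ∀ c ∈ D, Commute a b → Commute b c → Commute a c) {a b : G}
    (ha : a ∈ D) (hb : b ∈ D) (hab : Commute a b)
    (h4 : ∀ x ∈ D, ¬ Commute x a → (x * (a * b)) ^ 4 = 1) : a * b ∈ Cfsg.pCore 2 G := by
  have sz := sq_mul (h.sq a ha) (h.sq b hb) hab
  have hz : ∀ x ∈ D, Commute (a * b * x * (a * b)⁻¹) x := by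
    intro x hx
    by_cases hc : Commute x a
    · rw [← (hc.mul_right (tr x hx a ha b hb hc hab)).eq, mul_inv_cancel_right]
    · rw [inv_of_sq sz]
      apply comm_of_four' sz (h.sq x hx)
      calc (a * b * x) ^ 4 = x⁻¹ * (x * (a * b)) ^ 4 * x := by
            simp only [pow_succ, pow_zero, one_mul, mul_assoc, inv_mul_cancel_left]
        _ = 1 := by rw [h4 x hx hc, mul_one, inv_mul_cancel]
  apply GT.baer_suzuki_elem
  intro g
  have e : g * (a * b) * g⁻¹ = (g * a * g⁻¹) * (g * b * g⁻¹) := by group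
  have hc := hab.conj g
  have ha' := h.cj a ha g
  have hb' := h.cj b hb g
  rw [e]
  generalize g * a * g⁻¹ = a' at *
  generalize g * b * g⁻¹ = b' at *
  generalize a * b = z at *
  apply Inv.isPGroup_closure_pair sz (sq_mul (h.sq _ ha') (h.sq _ hb') hc) (k := 2)
  have mA := h.cj a' ha' z
  have mB := h.cj b' hb' z
  have c1 := hz a' ha'
  have c2 := hz b' hb'
  have c3 := tr _ mA a' ha' b' hb' c1 hc
  have c4 := tr _ mB b' hb' a' ha' c2 hc.symm
  have c5 := hc.conj z
  have e2 : (z * (a' * b')) ^ 2 = ((z * a' * z⁻¹) * (z * b' * z⁻¹)) * (a' * b') := by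
    rw [pow_two]
    nth_rewrite 2 [← inv_of_sq sz]
    group
  rw [pow_two 2, pow_mul, e2, pow_two]
  exact sq_mul (sq_mul (h.sq _ mA) (h.sq _ mB) c5) (sq_mul (h.sq _ ha') (h.sq _ hb') hc)
    ((c1.mul_right c3).mul_left (c4.mul_right c2))

theorem TP.sub (h : TP p D) (H : Subgroup G) : TP p {x : H | (x : G) ∈ D} where
  sq d hd := Subtype.ext (h.sq _ hd)
  cj d hd g := h.cj _ hd g
  pr a ha b hb := (h.pr _ ha _ hb).imp (fun hc => Subtype.ext hc.eq) (fun hc => Subtype.ext hc)

theorem TP.map (h : TP p D) {K : Type u} [Group K] (f : G →* K) (hf : Function.Surjective f) :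
    TP p (f '' D) where
  sq := by rintro _ ⟨d, hd, rfl⟩; rw [← map_mul, h.sq d hd, map_one]
  cj := by
    rintro _ ⟨d, hd, rfl⟩ g
    obtain ⟨g, rfl⟩ := hf g
    exact ⟨_, h.cj d hd g, by simp⟩
  pr := by
    rintro _ ⟨a, ha, rfl⟩ _ ⟨b, hb, rfl⟩
    exact (h.pr a ha b hb).imp (fun hc => hc.map f)
      (fun hc => by rw [← map_mul, ← map_pow, hc, map_one])

theorem TP.four_or (h : TP p D) {x z : G} (hx : x ∈ D) (sz : z * z = 1) :
    (x * z) ^ 4 = 1 ∨ ((x * z) ^ 2) ^ p = 1 := by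
  have e : (x * z) ^ 2 = x * (z * x * z⁻¹) := by rw [inv_of_sq sz, pow_two]; simp only [mul_assoc]
  rcases h.pr x hx _ (h.cj x hx z) with h1 | h1
  · left
    rw [show (4 : ℕ) = 2 * 2 from rfl, pow_mul, e, pow_two]
    exact sq_mul (h.sq x hx) (h.sq _ (h.cj x hx z)) h1
  · right; rw [e, h1]

theorem t1_step [Finite G] (hp : p.Prime) (h5 : 5 ≤ p)
    (IH : ∀ (K : Type u) [Group K] [Finite K], Nat.card K < Nat.card G → ∀ E : Set K, TP p E → T1 E)
    {D0 : Set G} (h0 : TP p D0) : T1 D0 := by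
  have ho : Odd p := hp.odd_of_ne_two (by omega)
  have c4 : (4 : ℕ).Coprime p := Nat.Coprime.pow_left 2 ((Nat.coprime_two_left).2 ho)
  have IHs : ∀ H : Subgroup G, H ≠ ⊤ → ∀ D : Set G, TP p D → ∀ a ∈ D, ∀ b ∈ D, ∀ x ∈ D, a ∈ H →
      b ∈ H → x ∈ H → Commute a b → ¬ Commute x a → ¬ Commute x b → (x * (a * b)) ^ 4 = 1 := by
    intro H hH D h a ha b hb x hx aH bH xH hab hxa hxb
    have hlt : Nat.card H < Nat.card G := by
      rw [← Subgroup.card_top (G := G)]
      exact lt_of_le_of_ne (Subgroup.card_le_of_le le_top)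
        (fun e => hH (Subgroup.eq_of_le_of_card_ge le_top e.ge))
    have := IH H hlt _ (h.sub H) ⟨a, aH⟩ ha ⟨b, bH⟩ hb ⟨x, xH⟩ hx (Subtype.ext hab.eq)
      (fun hc => hxa (congrArg Subtype.val hc.eq)) (fun hc => hxb (congrArg Subtype.val hc.eq))
    exact congrArg Subtype.val this
  intro a ha0 b hb0 x hx0 hab hxa hxb
  by_contra hcon
  have htop : Subgroup.closure ({a, b, x} : Set G) = ⊤ := by
    by_contra hn
    exact hcon (IHs _ hn D0 h0 a ha0 b hb0 x hx0 (Subgroup.subset_closure (by simp))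
      (Subgroup.subset_closure (by simp)) (Subgroup.subset_closure (by simp)) hab hxa hxb)
  let D : Set G := {d | ∃ g : G, g * a * g⁻¹ = d}
  have hD0 : ∀ d ∈ D, d ∈ D0 := by rintro _ ⟨g, rfl⟩; exact h0.cj a ha0 g
  have h : TP p D :=
    { sq := fun d hd => h0.sq d (hD0 d hd)
      cj := by rintro _ ⟨g, rfl⟩ k; exact ⟨k * g, by group⟩
      pr := fun d hd e he => h0.pr d (hD0 d hd) e (hD0 e he) }
  have ha : a ∈ D := ⟨1, by simp⟩
  have hx : x ∈ D := by
    obtain ⟨f, -, e, -⟩ := h0.mid ho ha0 hx0 (fun hc => hxa hc.symm)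
    exact ⟨f, e⟩
  have hb : b ∈ D := by
    obtain ⟨f, -, e, -⟩ := h0.mid ho hx0 hb0 hxb
    exact e ▸ h.cj x hx f
  have hgen : Subgroup.closure D = ⊤ := by
    rw [eq_top_iff, ← htop]
    apply Subgroup.closure_mono
    rintro y (rfl | rfl | rfl) <;> assumption
  have hcl : ∀ d ∈ D, ∀ e ∈ D, ∃ g : G, g * d * g⁻¹ = e := by
    rintro _ ⟨g, rfl⟩ _ ⟨k, rfl⟩; exact ⟨k * g⁻¹, by group⟩
  have hne1 : ∀ d ∈ D, d ≠ 1 := by
    rintro _ ⟨g, rfl⟩ e
    have : a = 1 := by simpa using e
    exact hxa (by rw [this]; exact Commute.one_right x)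
  have sz := sq_mul (h.sq a ha) (h.sq b hb) hab
  have h2p : ((x * (a * b)) ^ 2) ^ p = 1 := (h.four_or hx sz).resolve_left hcon
  have four : ∀ N : Subgroup G, (∀ d ∈ D, ∀ e ∈ D, d * e ∈ N → Commute d e) →
      ∀ d ∈ D, ∀ e ∈ D, (d * e) ^ 4 ∈ N → Commute d e := by
    intro N hN d hd e he h4
    rcases h.pr d hd e he with h1 | h1
    · exact h1
    · obtain ⟨m, hm⟩ := mem_zpowers_pow h1 c4
      exact hN d hd e he (hm ▸ N.pow_mem h4 m)
  have IHq : ∀ N : Subgroup G, N.Normal → N ≠ ⊥ → (∀ d ∈ D, ∀ e ∈ D, d * e ∈ N → Commute d e) →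
      (x * (a * b)) ^ 4 ∈ N := by
    intro N hN hN1 hN2
    have hlt : Nat.card (G ⧸ N) < Nat.card G := by
      rw [Subgroup.card_eq_card_quotient_mul_card_subgroup N]
      have h1 := (Subgroup.one_lt_card_iff_ne_bot N).2 hN1
      have h2 : 0 < Nat.card (G ⧸ N) := Nat.card_pos
      nlinarith
    have hq := h.map (QuotientGroup.mk' N) (QuotientGroup.mk'_surjective N)
    have nc : ∀ d ∈ D, ∀ e ∈ D, Commute (QuotientGroup.mk' N d) (QuotientGroup.mk' N e) →
        Commute d e := by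
      intro d hd e he hc
      apply four N hN2 d hd e he
      rw [← QuotientGroup.eq_one_iff]
      show QuotientGroup.mk' N ((d * e) ^ 4) = 1
      rw [map_pow, map_mul, show (4 : ℕ) = 2 * 2 from rfl, pow_mul, pow_two (_ * _),
        sq_mul (hq.sq _ ⟨d, hd, rfl⟩) (hq.sq _ ⟨e, he, rfl⟩) hc, one_pow]
    have := IH (G ⧸ N) hlt _ hq _ ⟨a, ha, rfl⟩ _ ⟨b, hb, rfl⟩ _ ⟨x, hx, rfl⟩ (hab.map _)
      (fun hc => hxa (nc x hx a ha hc)) (fun hc => hxb (nc x hx b hb hc))
    rw [← QuotientGroup.eq_one_iff]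
    show QuotientGroup.mk' N ((x * (a * b)) ^ 4) = 1
    rw [map_pow, map_mul, map_mul, this]
  have cop : ∀ (r : G) (k : ℕ), r ^ 2 ^ k = 1 → r ^ p = 1 → r = 1 := by
    intro r k h1 h2
    have h3 := pow_gcd_eq_one.2 ⟨h1, h2⟩
    rwa [Nat.Coprime.pow_left k ((Nat.coprime_two_left).2 ho), pow_one] at h3
  have no2 : ∀ N : Subgroup G, N.Normal → IsPGroup 2 N → N = ⊥ := by
    intro N hN hN2
    by_contra hN1
    have el : ∀ r ∈ N, ∃ k, r ^ 2 ^ k = 1 := fun r hr => by
      obtain ⟨k, hk⟩ := hN2 ⟨r, hr⟩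
      exact ⟨k, congrArg Subtype.val hk⟩
    have h4 := IHq N hN hN1 (fun d hd e he hde => by
      rcases h.pr d hd e he with h1 | h1
      · exact h1
      · obtain ⟨k, hk⟩ := el _ hde
        rw [eq_of_mul_eq_one (h.sq e he) (cop _ k hk h1)])
    obtain ⟨k, hk⟩ := el _ h4
    have := cop ((x * (a * b)) ^ 2) (k + 1) (by
      rw [← pow_mul] at hk ⊢; rw [← hk]; congr 1; ring) h2p
    exact hcon (by rw [show (4 : ℕ) = 2 * 2 from rfl, pow_mul, this, one_pow])
  have cenN : ∀ c : G, Subgroup.centralizer {c} = ⊤ → ∀ r ∈ Subgroup.zpowers c, ∀ g : G,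
      Commute r g := by
    rintro c hc _ ⟨n, rfl⟩ g
    have : g ∈ Subgroup.centralizer {c} := hc ▸ Subgroup.mem_top g
    exact Commute.zpow_left (Subgroup.mem_centralizer_singleton_iff.1 this).symm n
  have normN : ∀ c : G, Subgroup.centralizer {c} = ⊤ → (Subgroup.zpowers c).Normal :=
    fun c hc => ⟨fun r hr g => by rwa [← (cenN c hc r hr g).eq, mul_inv_cancel_right]⟩
  have cen2 : ∀ w : G, w ^ 2 = 1 → w ≠ 1 → Subgroup.centralizer {w} ≠ ⊤ := by
    intro w hw hw1 hc
    have := no2 _ (normN w hc) (IsPGroup.of_card (n := 1)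
      (by rw [Nat.card_zpowers, pow_one]; exact orderOf_eq_prime hw hw1))
    exact hw1 (Subgroup.zpowers_eq_bot.1 this)
  have mc : ∀ {w y : G}, Commute y w → y ∈ Subgroup.centralizer {w} := fun hh =>
    Subgroup.mem_centralizer_singleton_iff.2 hh
  have h1 : PT1 D := by
    intro a ha b hb x hx hab hzD hxa hxb
    have sx := h.sq x hx
    have sz := sq_mul (h.sq a ha) (h.sq b hb) hab
    by_cases hne : a = b
    · rw [hne, h.sq b hb, mul_one, show (4 : ℕ) = 2 * 2 from rfl, pow_mul, pow_two x, sx, one_pow]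
    rcases h.four_or hx sz with h4 | h4
    · exact h4
    obtain ⟨m, hm⟩ := ho
    have hi := TP.inv_pow_conj (TP.dih_inv sx sz) sx
    have hd : x * (x * (a * b)) ^ (p + 1) ∈ D := by
      have := h.cj x hx ((x * (a * b)) ^ (m + 1))⁻¹
      rw [inv_inv, ← hi] at this
      convert this using 1
      calc x * (x * (a * b)) ^ (p + 1)
          = x * ((x * (a * b)) ^ (m + 1) * (x * x) * (x * (a * b)) ^ (m + 1)) := by
            rw [sx, mul_one, ← pow_add, hm]; congr 2; ring
        _ = _ := by simp only [mul_assoc]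
    have e : x * (x * (a * b)) ^ (p + 1) = (a * b) * (x * (a * b)) ^ p := by
      rw [pow_succ', ← mul_assoc, ← mul_assoc, sx, one_mul]
    have hw2 : ((x * (a * b)) ^ p) ^ 2 = 1 := by rw [← pow_mul, mul_comm, pow_mul, h4]
    have hwx : Commute x ((x * (a * b)) ^ p) := by
      have := hi p
      rw [inv_of_sq (by rw [← pow_two]; exact hw2)] at this
      apply mul_inv_eq_iff_eq_mul.1
      rw [inv_of_sq sx, this]
    have hwz : Commute (a * b) ((x * (a * b)) ^ p) := by
      have := hwx.mul_left ((Commute.refl (x * (a * b))).pow_right p)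
      rwa [← mul_assoc, sx, one_mul] at this
    rw [e] at hd
    generalize (x * (a * b)) ^ p = w at hd hw2 hwx hwz
    have hw1 : w ≠ 1 := by rintro rfl; exact hzD (by simpa using hd)
    have hdz : Commute (a * b * w) (a * b) := (Commute.refl _).mul_left hwz.symm
    have ew : w = (a * b) * (a * b * w) := by rw [← mul_assoc, sz, one_mul]
    have c1 := h.lemA ⟨m, hm⟩ ha hb hd hab hne hdz
    have c2 := h.lemA ⟨m, hm⟩ hb ha hd hab.symm (Ne.symm hne) (hab.eq ▸ hdz)
    refine IHs _ (cen2 w hw2 hw1) D h a ha b hb x hx (mc ?_) (mc ?_) (mc hwx) hab hxa hxb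
    · rw [ew]; exact ((Commute.refl a).mul_right hab).mul_right c1.symm
    · rw [ew]; exact (hab.symm.mul_right (Commute.refl b)).mul_right c2.symm
  have hz : a * b ∈ D := by
    by_contra hz
    exact hcon (h1 a ha b hb x hx hab hz hxa hxb)
  have hxz : ¬ Commute x (a * b) := fun hc => hcon (by
    rw [show (4 : ℕ) = 2 * 2 from rfl, pow_mul, pow_two (x * _), sq_mul (h.sq x hx) sz hc, one_pow])
  have cenp : ∀ c : G, c ≠ 1 → Subgroup.centralizer {c} ≠ ⊤ := by
    intro c hc1 hc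
    have hN : ∀ d ∈ D, ∀ e ∈ D, d * e ∈ Subgroup.zpowers c → Commute d e := by
      intro d hd e he hde
      have := (Commute.refl d).mul_left (cenN c hc _ hde d)
      rw [← mul_assoc, h.sq d hd, one_mul] at this
      exact this.symm
    exact hxz (four _ hN x hx _ hz (IHq _ (normN c hc)
      (fun e => hc1 (Subgroup.zpowers_eq_bot.1 e)) hN))
  have tr := trans_of h hp h5 h1 hgen hcl
  have hne : a ≠ b := fun e => hne1 _ hz (by rw [e, h.sq b hb])
  refine core_false h hp h5 hne1 tr ?_ ?_ ?_ ?_ ha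
  · intro f hf f' hf' hc hff
    by_contra hn
    have := mem_pCore h tr hf hf' hc (fun y hy hyf => h1 f hf f' hf' y hy hc hn hyf
      (fun hh => hyf (tr y hy f' hf' f hf hh hc.symm)))
    rw [no2 _ inferInstance (GT.isPGroup_pCore 2)] at this
    exact hff (eq_of_mul_eq_one (h.sq f' hf') this)
  · rintro _ ⟨g, rfl⟩
    exact ⟨_, h.cj b hb g, fun e => hne (by simpa using e.symm), hab.conj g⟩
  · rintro _ ⟨g, rfl⟩
    exact ⟨_, h.cj x hx g, fun hc => hxa (by simpa [mul_assoc] using hc.symm.conj g⁻¹)⟩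
  · intro c hc1 _ a' ha' b' hb' y hy hc hne' hn k1 k2 k3
    have hm : a' * b' ∈ D := by
      by_contra hn
      have := mem_pCore h tr ha' hb' hc (fun y hy hyf => h1 a' ha' b' hb' y hy hc hn hyf
        (fun hh => hyf (tr y hy b' hb' a' ha' hh hc.symm)))
      rw [no2 _ inferInstance (GT.isPGroup_pCore 2)] at this
      exact hne' (eq_of_mul_eq_one (h.sq b' hb') this)
    have := IHs _ (cenp c hc1) D h a' ha' b' hb' y hy (mc k1.symm) (mc k2.symm) (mc k3.symm) hc
      (fun hh => hn hh.symm) (fun hh => hn (tr a' ha' b' hb' y hy hc hh.symm))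
    exact hn (tr a' ha' _ hm y hy ((Commute.refl a').mul_right hc)
      (h.comm_of_four ho hy hm this).symm)

theorem t1 (hp : p.Prime) (h5 : 5 ≤ p) (n : ℕ) : ∀ (G : Type u) [Group G] [Finite G],
    Nat.card G = n → ∀ D : Set G, TP p D → T1 D := by
  induction n using Nat.strong_induction_on with
  | _ n ih =>
    intro G _ _ hn D h
    exact t1_step hp h5 (fun K _ _ hK E hE => ih _ (hn ▸ hK) K rfl E hE) h

/-- In a group generated by a class of `{2,p}`-transpositions, `p ≥ 5`, the product of two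
commuting members lies in `O₂`. -/
theorem mul_mem_pCore [Finite G] (h : TP p D) (hp : p.Prime) (h5 : 5 ≤ p)
    (hgen : Subgroup.closure D = ⊤) (hcl : ∀ a ∈ D, ∀ b ∈ D, ∃ g : G, g * a * g⁻¹ = b) {a b : G}
    (ha : a ∈ D) (hb : b ∈ D) (hab : Commute a b) : a * b ∈ Cfsg.pCore 2 G := by
  have h1 := t1 hp h5 _ G rfl D h
  have tr := trans_of h hp h5 (fun a ha b hb x hx hab _ => h1 a ha b hb x hx hab) hgen hcl
  exact mem_pCore h tr ha hb hab (fun y hy hyf => h1 a ha b hb y hy hab hyf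
    (fun hh => hyf (tr y hy b hb a ha hh hab.symm)))

end Cfsg.Agent.Spor.PT
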